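import Cfsg.Agent.Lib.Helper3.O73.Iso
import Cfsg.Agent.Lib.Helper11.Cover
import Cfsg.Agent.S1685
import Cfsg.Agent.S1696

set_option autoImplicit false
set_option maxRecDepth 100000

namespace Cfsg.Agent.Lib.Helper3.O73

open Cfsg.Agent.Lib.Helper11 Cfsg.Agent.Lib.Helper3 Cfsg.Spor Cfsg.Spor.Fi22

set_option maxHeartbeats 0

/-- the presentation map -/
noncomputable abbrev mk22 : FreeGroup Gen →* Cfsg.Spor.Fi22 :=
  PresentedGroup.mk (coxRelators edges ∪ {r | r ∈ extra})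

/-- the subgroup `O7(3)` -/
noncomputable abbrev HH : Subgroup Cfsg.Spor.Fi22 :=
  (Subgroup.closure ({b, c, d, e, f, g, h, i} : Set (FreeGroup Gen))).map mk22

/-- the generators in the presented group -/
noncomputable def vG (l : ℕ) : Cfsg.Spor.Fi22 :=
  if l = 1 then mk22 (e1.eval (fun l => Fi22o.LTFm.getD l 1))
  else if l = 2 then mk22 (e2.eval (fun l => Fi22o.LTFm.getD l 1)) else 1

theorem pchk1 : ptChk (ntOf Fi22o.ntl) (e1.letters Fi22o.INVm) (tb PTH 12) (tb IMG1 9) ntl 1 351 := by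
  decide +kernel
theorem pchk2 : ptChk (ntOf Fi22o.ntl) (e2.letters Fi22o.INVm) (tb PTH 12) (tb IMG2 9) ntl 2 351 := by
  decide +kernel
theorem bkOK : ∀ i < 351, tb BK 9 (tb PTH 12 i) = i := by decide +kernel

theorem cardH : Nat.card HH = 4585351680 := by
  have h1 := Cfsg.Agent.S1685.result
  have h2 := Cfsg.Agent.S1696.result.2
  have h3 := HH.card_mul_index
  rw [h2] at h3
  have h4 : HH.index = 14080 := h1
  rw [h4] at h3
  omega

theorem memL (x : FreeGroup Gen) (hx : x ∈ ({b, c, d, e, f, g, h, i} : Set (FreeGroup Gen))) :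
    mk22 x ∈ HH := Subgroup.mem_map_of_mem _ (Subgroup.subset_closure hx)

theorem isoH : Nonempty (HH ≃* lgrp (vL ntl deg) [1, 2]) := by
  have hfin : Finite HH := Nat.finite_of_card_ne_zero (by rw [cardH]; norm_num)
  have hv1 : vG 1 = mk22 (e1.eval (fun l => Fi22o.LTFm.getD l 1)) := by simp [vG]
  have hv2 : vG 2 = mk22 (e2.eval (fun l => Fi22o.LTFm.getD l 1)) := by simp [vG]
  have h2 : mk22 (Fi22o.LTFm.getD 2 1) ∈ HH := memL b (by simp)
  have h3 : mk22 (Fi22o.LTFm.getD 3 1) ∈ HH := memL c (by simp)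
  have h4 : mk22 (Fi22o.LTFm.getD 4 1) ∈ HH := memL d (by simp)
  have h5 : mk22 (Fi22o.LTFm.getD 5 1) ∈ HH := memL e (by simp)
  have h6 : mk22 (Fi22o.LTFm.getD 6 1) ∈ HH := memL f (by simp)
  have h7 : mk22 (Fi22o.LTFm.getD 7 1) ∈ HH := memL g (by simp)
  have h8 : mk22 (Fi22o.LTFm.getD 8 1) ∈ HH := memL h (by simp)
  have h9 : mk22 (Fi22o.LTFm.getD 9 1) ∈ HH := memL i (by simp)
  refine (iso_of_graph_card (ptGraph Fi22o.psi (fun i : Fin 351 => tb PTH 12 i))
    (ptGraph_fun _ _ (inj_of_leftInv 351 _ (tb BK 9) bkOK)) vG (vL ntl deg) [1, 2] ?_ HH ?_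
    4585351680 card_eq cardH).2
  · intro x hx
    simp only [List.mem_cons, List.mem_nil_iff, or_false] at hx
    rcases hx with rfl | rfl
    · rw [hv1]
      exact setup.mem_ptGraph_of_chk Fi22o.psi (ntOf Fi22o.ntl) _ (ntOf_ok Fi22o.ntl _ Fi22o.netsOK)
        _ _ (Fi22o.psi_eval e1) _ _ 1 pchk1
    · rw [hv2]
      exact setup.mem_ptGraph_of_chk Fi22o.psi (ntOf Fi22o.ntl) _ (ntOf_ok Fi22o.ntl _ Fi22o.netsOK)
        _ _ (Fi22o.psi_eval e2) _ _ 2 pchk2
  · intro x hx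
    simp only [List.mem_cons, List.mem_nil_iff, or_false] at hx
    rcases hx with rfl | rfl
    · rw [hv1]
      simp only [e1, WExp.eval, map_mul]
      repeat' apply Subgroup.mul_mem
      all_goals assumption
    · rw [hv2]
      simp only [e2, WExp.eval, map_mul]
      repeat' apply Subgroup.mul_mem
      all_goals assumption

theorem isoPOm : Nonempty (HH ≃* Cfsg.POmega (ZMod 3) (Cfsg.quadFormOdd 3 (ZMod 3))) := by
  obtain ⟨e1⟩ := isoH
  obtain ⟨e2⟩ := pom_iso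
  exact ⟨e1.trans e2.symm⟩

end Cfsg.Agent.Lib.Helper3.O73
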