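import Cfsg.Agent.Lib.Helper3.O73.Mat
import Cfsg.Agent.Lib.Helper3.MatL2
import Cfsg.Agent.S0292

set_option autoImplicit false
set_option maxRecDepth 100000

namespace Cfsg.Agent.Lib.Helper3.O73

open Cfsg.Agent.Lib.Helper11 Cfsg.Agent.Lib.Helper3 Matrix

set_option maxHeartbeats 0

/-- the index type -/
abbrev II : Type := Unit ⊕ (Fin 3 ⊕ Fin 3)

/-- numbering of the coordinates -/
def ee : II ≃ Fin 7 where
  toFun
    | .inl _ => 0
    | .inr (.inl i) => ⟨1 + i.val, by omega⟩
    | .inr (.inr i) => ⟨4 + i.val, by omega⟩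
  invFun k := if h : k.val = 0 then .inl () else if h2 : k.val < 4 then .inr (.inl ⟨k.val - 1, by omega⟩)
    else .inr (.inr ⟨k.val - 4, by omega⟩)
  left_inv := by decide
  right_inv := by decide

/-- the symmetric matrix of the form -/
def Sp : Matrix II II (ZMod 3) := fun i j =>
  match i, j with
  | .inl _, .inl _ => 1
  | .inr (.inl a), .inr (.inr b) => if a = b then 2 else 0
  | .inr (.inr a), .inr (.inl b) => if a = b then 2 else 0
  | _, _ => 0

theorem Sp_eq : Sp = toM ee SpL := by decide +kernel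

theorem hQ (u : II → ZMod 3) : Cfsg.quadFormOdd 3 (ZMod 3) u = u ⬝ᵥ (Sp *ᵥ u) := by
  have h4 : (4 : ZMod 3) = 1 := by decide
  simp only [Cfsg.quadFormOdd, dotProduct, Matrix.mulVec, Fintype.sum_sum_type, Sp,
    Finset.univ_unique, Finset.sum_singleton, zero_mul, Finset.sum_const_zero, add_zero, zero_add,
    one_mul, ite_mul, Finset.sum_ite_eq, Finset.mem_univ, if_true]
  rw [← Finset.sum_add_distrib, pow_two]
  congr 1
  apply Finset.sum_congr rfl
  intro a _
  linear_combination (-(u (.inr (.inl a)) * u (.inr (.inr a)))) * h4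

theorem lenR (w : List ℕ) : ∀ W ∈ w.map RR, W.length ≤ 7 := by
  intro W hW
  obtain ⟨x, _, rfl⟩ := List.mem_map.1 hW
  unfold RR
  split <;> simp

def xs : List ℕ := [2, 3, 4, 5, 6, 7, 8, 9]

theorem sqOK : ∀ x ∈ xs, ∀ j < 7, mvW ([x, x].map RR) (basL 7 j) = mvW ([].map RR) (basL 7 j) := by
  decide +kernel

theorem RT_eq : ∀ x ∈ xs, toM ee (RT x) = (toM ee (RR x))ᵀ := by decide +kernel

theorem isoOK : ∀ x ∈ xs, ∀ j < 7, mvW [RT x, SpL, RR x] (basL 7 j) = mvW [SpL] (basL 7 j) := by
  decide +kernel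

theorem sq_mat (x : ℕ) (hx : x ∈ xs) : toM ee (RR x) * toM ee (RR x) = 1 := by
  have := prod_toM_eq ee ([x, x].map RR) ([].map RR) (lenR _) (lenR _) (sqOK x hx)
  simpa using this

theorem lenRT (x : ℕ) : (RT x).length ≤ 7 := by
  unfold RT
  split <;> simp

theorem iso_mat (x : ℕ) (hx : x ∈ xs) : (toM ee (RR x))ᵀ * Sp * toM ee (RR x) = Sp := by
  have hl : ∀ W ∈ [RT x, SpL, RR x], W.length ≤ 7 := by
    intro W hW
    simp only [List.mem_cons, List.mem_nil_iff, or_false] at hW
    rcases hW with rfl | rfl | rfl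
    · exact lenRT x
    · simp [SpL]
    · exact lenR [x] _ (by simp)
  have := prod_toM_eq ee [RT x, SpL, RR x] [SpL] hl (by simp [SpL]) (isoOK x hx)
  rw [← RT_eq x hx, Sp_eq]
  simpa [mul_assoc] using this

/-- the isometry group -/
abbrev OO : Subgroup (GL II (ZMod 3)) := Cfsg.isometryGroup (ZMod 3) (Cfsg.quadFormOdd 3 (ZMod 3))

open Classical in
/-- the reflections as isometries -/
noncomputable def rr (x : ℕ) : OO :=
  if hx : x ∈ xs then
    ⟨⟨toM ee (RR x), toM ee (RR x), sq_mat x hx, sq_mat x hx⟩,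
      fun u _ => quad_preserved _ Sp hQ _ (iso_mat x hx) u⟩
  else 1

/-- matrices of isometries -/
def TO : OO →* Matrix II II (ZMod 3) := (Units.coeHom _).comp OO.subtype

theorem TO_inj : Function.Injective TO := by
  intro a b h
  apply Subtype.ext
  exact Units.ext h

theorem TO_rr (x : ℕ) (hx : x ∈ xs) : TO (rr x) = toM ee (RR x) := by
  unfold rr
  rw [dif_pos hx]
  rfl

theorem TO_word (w : List ℕ) (hw : ∀ l ∈ w, l ∈ xs) :
    TO ((w.map rr).prod) = ((w.map RR).map (toM ee)).prod := by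
  induction w with
  | nil => simp
  | cons a t ih =>
    rw [List.map_cons, List.prod_cons, map_mul, TO_rr a (hw a (by simp)),
      ih (fun l hl => hw l (by simp [hl]))]
    simp

theorem word_eq_one (w : List ℕ) (hw : ∀ l ∈ w, l ∈ xs)
    (h : ∀ j < 7, mvW (w.map RR) (basL 7 j) = mvW ([].map RR) (basL 7 j)) :
    (w.map rr).prod = 1 := by
  apply TO_inj
  rw [TO_word w hw, map_one]
  have := prod_toM_eq ee (w.map RR) ([].map RR) (lenR _) (lenR _) h
  simpa using this

def braids : List (ℕ × ℕ) := [(4, 3), (3, 2), (4, 5), (5, 6), (6, 7), (4, 8), (8, 9)]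

theorem braidOK : ∀ p ∈ braids, ∀ j < 7,
    mvW ([p.1, p.2, p.1, p.2, p.1, p.2].map RR) (basL 7 j) = mvW ([].map RR) (basL 7 j) := by
  decide +kernel

theorem ab_sq (x : ℕ) (hx : x ∈ xs) : Abelianization.of (rr x) ^ 2 = 1 := by
  have := word_eq_one [x, x] (by simp [hx]) (sqOK x hx)
  rw [pow_two, ← map_mul]
  simp only [List.map_cons, List.map_nil, List.prod_cons, List.prod_nil, mul_one] at this
  rw [this, map_one]

theorem ab_braid (p : ℕ × ℕ) (hp : p ∈ braids) (h1 : p.1 ∈ xs) (h2 : p.2 ∈ xs) :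
    Abelianization.of (rr p.1) = Abelianization.of (rr p.2) := by
  apply eq_of_braid 1 (ab_sq _ h1) (ab_sq _ h2)
  have := word_eq_one [p.1, p.2, p.1, p.2, p.1, p.2] (by simp [h1, h2]) (braidOK p hp)
  simp only [List.map_cons, List.map_nil, List.prod_cons, List.prod_nil, mul_one] at this
  rw [← map_mul, ← map_pow]
  have e : (rr p.1 * rr p.2) ^ (2 * 1 + 1) =
      rr p.1 * (rr p.2 * (rr p.1 * (rr p.2 * (rr p.1 * rr p.2)))) := by
    simp only [pow_succ, pow_zero, one_mul, mul_assoc]
  rw [e, this, map_one]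

theorem ab_all : ∀ x ∈ xs, Abelianization.of (rr x) = Abelianization.of (rr 4) := by
  have e3 := (ab_braid (4, 3) (by decide) (by decide) (by decide)).symm
  have e2 := (ab_braid (3, 2) (by decide) (by decide) (by decide)).symm.trans e3
  have e5 := (ab_braid (4, 5) (by decide) (by decide) (by decide)).symm
  have e6 := (ab_braid (5, 6) (by decide) (by decide) (by decide)).symm.trans e5
  have e7 := (ab_braid (6, 7) (by decide) (by decide) (by decide)).symm.trans e6
  have e8 := (ab_braid (4, 8) (by decide) (by decide) (by decide)).symm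
  have e9 := (ab_braid (8, 9) (by decide) (by decide) (by decide)).symm.trans e8
  intro x hx
  simp only [xs, List.mem_cons, List.mem_nil_iff, or_false] at hx
  rcases hx with rfl | rfl | rfl | rfl | rfl | rfl | rfl | rfl
  · exact e2
  · exact e3
  · rfl
  · exact e5
  · exact e6
  · exact e7
  · exact e8
  · exact e9

/-- the group `Ω` -/
abbrev Om : Subgroup OO := Cfsg.Omega (ZMod 3) (Cfsg.quadFormOdd 3 (ZMod 3))

theorem mem_Om (w : List ℕ) (hw : ∀ l ∈ w, l ∈ xs) (k : ℕ) (hk : w.length = 2 * k) :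
    (w.map rr).prod ∈ Om :=
  even_word_mem_commutator rr 4 (ab_sq 4 (by decide)) w (fun l hl => ab_all l (hw l hl)) k hk

noncomputable def gA : Om := ⟨(w1.map rr).prod, mem_Om w1 (by decide) 3 rfl⟩
noncomputable def gB : Om := ⟨(w2.map rr).prod, mem_Om w2 (by decide) 4 rfl⟩

def TT : Om →* Matrix II II (ZMod 3) := TO.comp Om.subtype

theorem TT_inj : Function.Injective TT := TO_inj.comp Subtype.val_injective

noncomputable def vM (l : ℕ) : Om := if l = 1 then gA else if l = 2 then gB else 1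

theorem card_pom : Nat.card (Cfsg.POmega (ZMod 3) (Cfsg.quadFormOdd 3 (ZMod 3))) = 4585351680 := by
  have h := Cfsg.Agent.S0292.result (F := ZMod 3) (q := 3) (by simp) (by decide) 3 (by norm_num)
  have h2 : (∏ i ∈ Finset.range 3, (3 ^ (2 * (i + 1)) - 1)) = 465920 := by decide
  rw [h2] at h
  norm_num at h
  omega

theorem ncOK : (mvW ((w1 ++ w2).map RR) (basL 7 witJ)).getD witK 0 ≠
    (mvW ((w2 ++ w1).map RR) (basL 7 witJ)).getD witK 0 := by decide +kernel

/-- the points -/
def pp : Fin 351 → II → ZMod 3 := fun i => toV ee (pt i)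

def frB : II → Fin 351 := fun k => ⟨frBL.getD (ee k) 0 % 351, Nat.mod_lt _ (by norm_num)⟩

theorem pom_iso : Nonempty (Cfsg.POmega (ZMod 3) (Cfsg.quadFormOdd 3 (ZMod 3)) ≃*
    lgrp (vL ntl deg) [1, 2]) := by
  apply quot_iso_of_graph (projGraph TT pp) (Subgroup.center Om)
    _ vM (vL ntl deg) [1, 2] _ simple 4585351680 card_eq card_pom (by norm_num)
  · refine ⟨1, by simp, ?_⟩
    intro h
    have h1 := (Subgroup.mem_center_iff.1 h) gB
    have h2 : TT (gB * gA) = TT (gA * gB) := congrArg TT h1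
    have h3 : TT (gA * gB) = (((w1 ++ w2).map RR).map (toM ee)).prod := by
      rw [← TO_word _ (by decide), List.map_append, List.prod_append]
      rfl
    have h4 : TT (gB * gA) = (((w2 ++ w1).map RR).map (toM ee)).prod := by
      rw [← TO_word _ (by decide), List.map_append, List.prod_append]
      rfl
    rw [h3, h4] at h2
    exact prod_toM_ne ee _ _ (lenR _) (lenR _) witJ witK ncOK h2.symm
  · intro g hg
    obtain ⟨c0, hc⟩ := scalar_of_projGraph TT pp frB frI (toM ee frInvL) (toV ee frAL)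
      (by decide +kernel) (by decide +kernel) (by decide +kernel) g hg
    exact mem_center_of_scalar TT TT_inj g c0 hc
  · intro x hx
    simp only [List.mem_cons, List.mem_nil_iff, or_false] at hx
    rcases hx with rfl | rfl
    · exact setup.mem_projGraph_of_chkW TT gA ee (w1.map RR) (lenR _) (TO_word w1 (by decide)) pt
        (fun i => ptOf_length _ _ _ _ _) _ _ 1 chk1
    · exact setup.mem_projGraph_of_chkW TT gB ee (w2.map RR) (lenR _) (TO_word w2 (by decide)) pt
        (fun i => ptOf_length _ _ _ _ _) _ _ 2 chk2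

end Cfsg.Agent.Lib.Helper3.O73
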